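import Cfsg.Agent.S0144

/-!
# Characteristically simple groups whose order divides 95040 (helper640, for S3499)
-/

set_option autoImplicit false
set_option linter.unusedSectionVars false

namespace Cfsg.Agent.H640.EPC

open Subgroup
open scoped commutatorElement

variable {K : Type*} [Group K] [Finite K]

/-- the join of two normal subgroups of order prime to `p` -/
theorem not_dvd_sup {p : ℕ} (hp : p.Prime) {S T : Subgroup K} [S.Normal] [T.Normal] (hS : ¬ p ∣ Nat.card S)
    (hT : ¬ p ∣ Nat.card T) : ¬ p ∣ Nat.card (S ⊔ T : Subgroup K) := by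
  intro h
  have h1 : Nat.card S * S.relIndex (S ⊔ T) = Nat.card (S ⊔ T : Subgroup K) := by
    have h3 := Subgroup.relIndex_mul_relIndex ⊥ S (S ⊔ T) bot_le le_sup_left
    rwa [relIndex_bot_left, relIndex_bot_left] at h3
  have h2 : S.relIndex (S ⊔ T) = S.relIndex T := Subgroup.relIndex_sup_left T S
  rw [← h1, h2, hp.dvd_mul] at h
  rcases h with h | h
  · exact hS h
  · exact hT (h.trans (Subgroup.relIndex_dvd_card S T))

/-- a normal `T` of index prime to `p` contains the elements of order `p` -/
theorem mem_of_index {p : ℕ} (hp : p.Prime) {T : Subgroup K} [T.Normal] (hT : ¬ p ∣ T.index) {x : K} (hx : x ^ p = 1) :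
    x ∈ T := by
  rw [← QuotientGroup.eq_one_iff]
  have h1 : ((x : K ⧸ T)) ^ p = 1 := by
    rw [← QuotientGroup.mk_pow, hx]; rfl
  have h2 := orderOf_dvd_of_pow_eq_one h1
  rcases (Nat.dvd_prime hp).1 h2 with h3 | h3
  · exact orderOf_eq_one_iff.1 h3
  · exfalso
    apply hT
    rw [Subgroup.index, ← h3]
    exact orderOf_dvd_natCard _

theorem char_cases [Nontrivial K] (hchar : ∀ L : Subgroup K, L.Characteristic → L = ⊥ ∨ L = ⊤)
    (hcard : Nat.card K ∣ 95040) :
    (∃ p : ℕ, p.Prime ∧ (∀ a b : K, a * b = b * a) ∧ ∀ a : K, a ^ p = 1) ∨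
      (IsSimpleGroup K ∧ ¬ IsMulCommutative K ∧ (5 ∣ Nat.card K ∨ 11 ∣ Nat.card K)) := by
  by_cases hab : ∀ a b : K, a * b = b * a
  · left
    have hne : Nat.card K ≠ 1 := (Finite.one_lt_card (α := K)).ne'
    set p := (Nat.card K).minFac with hp
    have hpp : p.Prime := Nat.minFac_prime hne
    refine ⟨p, hpp, hab, ?_⟩
    let L : Subgroup K :=
      { carrier := {a | a ^ p = 1}
        one_mem' := one_pow p
        mul_mem' := fun {a b} ha hb => by
          have ha' : a ^ p = 1 := ha
          have hb' : b ^ p = 1 := hb
          show (a * b) ^ p = 1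
          rw [(show Commute a b from hab a b).mul_pow, ha', hb', one_mul]
        inv_mem' := fun {a} ha => by
          have ha' : a ^ p = 1 := ha
          show (a⁻¹) ^ p = 1
          rw [inv_pow, ha', inv_one] }
    have hL : L.Characteristic := by
      rw [Subgroup.characteristic_iff_map_le]
      rintro φ _ ⟨a, ha, rfl⟩
      have ha' : a ^ p = 1 := ha
      show (φ a) ^ p = 1
      rw [← map_pow, ha', map_one]
    rcases hchar L hL with h | h
    · exfalso
      have := Fact.mk hpp
      obtain ⟨x, hx⟩ := exists_prime_orderOf_dvd_card' (G := K) p (Nat.minFac_dvd _)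
      have hxL : x ∈ L := by
        show x ^ p = 1
        rw [← hx]; exact pow_orderOf_eq_one x
      rw [h, mem_bot] at hxL
      rw [hxL, orderOf_one] at hx
      exact hpp.one_lt.ne hx
    · intro a
      have : a ∈ L := by rw [h]; trivial
      exact this
  · right
    have hna : ¬ IsMulCommutative K := fun h => hab fun a b => h.is_comm.comm a b
    have hcomm : commutator K = ⊤ := by
      rcases hchar (commutator K) inferInstance with h | h
      · exfalso
        apply hab
        intro a b
        have h1 : ⁅a, b⁆ ∈ commutator K := commutator_mem_commutator (mem_top a) (mem_top b)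
        rw [h, mem_bot, commutatorElement_eq_one_iff_mul_comm] at h1
        exact h1
      · exact h
    have hsol : ¬ Group.IsSolvable K := by
      intro h
      have := Group.IsSolvable.commutator_lt_top_of_nontrivial K
      exact this.ne hcomm
    have h511 : 5 ∣ Nat.card K ∨ 11 ∣ Nat.card K := by
      by_contra hcon
      push Not at hcon
      apply hsol
      have h1 : Nat.card K ∣ 2 ^ 6 * 3 ^ 3 := by
        have h2 : Nat.Coprime (Nat.card K) 5 := ((Nat.Prime.coprime_iff_not_dvd (by norm_num)).2 hcon.1).symm
        have h3 : Nat.Coprime (Nat.card K) 11 := ((Nat.Prime.coprime_iff_not_dvd (by norm_num)).2 hcon.2).symm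
        have h4 : Nat.card K ∣ (2 ^ 6 * 3 ^ 3) * 55 := by norm_num; exact hcard
        exact (Nat.Coprime.dvd_of_dvd_mul_right (by
          rw [show 55 = 5 * 11 from rfl]; exact Nat.Coprime.mul_right h2 h3) h4)
      obtain ⟨a, b, hab'⟩ := Cfsg.Agent.S0144.card_form_of_dvd Nat.prime_two Nat.prime_three h1
      exact Cfsg.Agent.S0144.result 2 3 a b Nat.prime_two Nat.prime_three hab'
    refine ⟨?_, hna, h511⟩
    -- the prime `p`
    obtain ⟨p, hp, hpd, hp2⟩ : ∃ p : ℕ, p.Prime ∧ p ∣ Nat.card K ∧ ¬ p ^ 2 ∣ Nat.card K := by
      rcases h511 with h | h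
      · exact ⟨5, by norm_num, h, fun h2 => by have := h2.trans hcard; norm_num at this⟩
      · exact ⟨11, by norm_num, h, fun h2 => by have := h2.trans hcard; norm_num at this⟩
    -- the largest normal `p'`-subgroup
    have hfin : {T : Subgroup K | T.Normal ∧ ¬ p ∣ Nat.card T}.Finite := Set.toFinite _
    obtain ⟨T₀, hT₀⟩ := hfin.exists_maximal ⟨⊥, inferInstance, by
      rw [card_bot]; exact fun h => hp.one_lt.ne' (Nat.dvd_one.1 h)⟩
    have hT₀m : ∀ S : Subgroup K, S.Normal → ¬ p ∣ Nat.card S → S ≤ T₀ := by
      intro S hS hSp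
      have := hT₀.prop.1
      have h1 : (T₀ ⊔ S : Subgroup K) ∈ {T : Subgroup K | T.Normal ∧ ¬ p ∣ Nat.card T} :=
        ⟨inferInstance, not_dvd_sup hp hT₀.prop.2 hSp⟩
      exact le_sup_right.trans (hT₀.le_of_ge h1 le_sup_left)
    have hT₀b : T₀ = ⊥ := by
      have := hT₀.prop.1
      have hc : T₀.Characteristic := by
        rw [Subgroup.characteristic_iff_map_le]
        intro φ
        refine hT₀m _ ?_ ?_
        · exact Subgroup.Normal.map inferInstance _ φ.surjective
        · rw [card_map_of_injective (f := φ.toMonoidHom) φ.injective]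
          exact hT₀.prop.2
      rcases hchar T₀ hc with h | h
      · exact h
      · exfalso
        apply hT₀.prop.2
        rw [h, card_top]
        exact hpd
    -- the subgroup generated by the elements of order `p`
    have := Fact.mk hp
    have hE : closure {x : K | x ^ p = 1} = ⊤ := by
      have hc : (closure {x : K | x ^ p = 1}).Characteristic := by
        rw [Subgroup.characteristic_iff_map_le]
        intro φ
        rw [MonoidHom.map_closure, closure_le]
        rintro _ ⟨a, ha, rfl⟩
        refine subset_closure ?_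
        have ha' : a ^ p = 1 := ha
        show (φ a) ^ p = 1
        rw [← map_pow, ha', map_one]
      rcases hchar _ hc with h | h
      · exfalso
        obtain ⟨x, hx⟩ := exists_prime_orderOf_dvd_card' (G := K) p hpd
        have hxL : x ∈ closure {x : K | x ^ p = 1} := by
          refine subset_closure ?_
          show x ^ p = 1
          rw [← hx]; exact pow_orderOf_eq_one x
        rw [h, mem_bot] at hxL
        rw [hxL, orderOf_one] at hx
        exact hp.one_lt.ne hx
      · exact h
    refine ⟨fun T hT => ?_⟩
    by_cases hTp : p ∣ Nat.card T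
    · right
      rw [← top_le_iff, ← hE, closure_le]
      intro x hx
      refine mem_of_index hp ?_ hx
      intro h
      apply hp2
      have h1 := Subgroup.card_mul_index T
      rw [← h1, pow_two]
      exact mul_dvd_mul hTp h
    · left
      rw [← le_bot_iff, ← hT₀b]
      exact hT₀m T hT hTp

end Cfsg.Agent.H640.EPC
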