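import Cfsg.Agent.H640.EPC.MTw
import Cfsg.Agent.H640.EPC.Char
import Cfsg.Agent.S1000
import Cfsg.Agent.SmallSimple.S1000.Consequences
import Cfsg.Agent.TwoGenCore.IsoMEleven
import Cfsg.Agent.H994.TwoGen.M11
import Cfsg.Agent.H424.Spr.AltC

/-!
# The number of characteristically simple proper subgroups of `M12` (helper640, for S3499)
-/

set_option autoImplicit false

namespace Cfsg.Agent.H640.EPC

open Subgroup Cfsg

/-- characteristically simple proper subgroups -/
def Good {G : Type*} [Group G] (K : Subgroup G) : Prop :=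
  K ≠ ⊥ ∧ K ≠ ⊤ ∧ ∀ L : Subgroup K, L.Characteristic → L = ⊥ ∨ L = ⊤

theorem cs_congr {K K' : Type*} [Group K] [Group K'] (f : K ≃* K')
    (h : ∀ L : Subgroup K, L.Characteristic → L = ⊥ ∨ L = ⊤) (L : Subgroup K') (hL : L.Characteristic) :
    L = ⊥ ∨ L = ⊤ := by
  have hLc : (L.comap f.toMonoidHom).Characteristic := by
    rw [Subgroup.characteristic_iff_comap_le]
    intro φ x hx
    have h1 : f (φ x) ∈ L := hx
    show f x ∈ L
    have h2 := (Subgroup.characteristic_iff_comap_eq.1 hL) ((f.symm.trans φ).trans f)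
    rw [← h2]
    show ((f.symm.trans φ).trans f) (f x) ∈ L
    rw [MulEquiv.trans_apply, MulEquiv.trans_apply, MulEquiv.symm_apply_apply]
    exact h1
  rcases h _ hLc with h1 | h1
  · left
    rw [eq_bot_iff]
    intro y hy
    obtain ⟨x, rfl⟩ := f.surjective y
    have h2 : x ∈ L.comap f.toMonoidHom := hy
    rw [h1, mem_bot] at h2
    rw [mem_bot, h2, map_one]
  · right
    rw [eq_top_iff]
    intro y _
    obtain ⟨x, rfl⟩ := f.surjective y
    have h2 : x ∈ L.comap f.toMonoidHom := by rw [h1]; trivial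
    exact h2

theorem Good.map {G G' : Type*} [Group G] [Group G'] (e : G ≃* G') {K : Subgroup G} (h : Good K) :
    Good (K.map e.toMonoidHom) := by
  refine ⟨?_, ?_, fun L hL => ?_⟩
  · rw [Ne, Subgroup.map_eq_bot_iff_of_injective K (f := e.toMonoidHom) e.injective]
    exact h.1
  · intro h1
    apply h.2.1
    rw [eq_top_iff]
    intro x _
    have h2 : e x ∈ K.map e.toMonoidHom := by rw [h1]; trivial
    obtain ⟨z, hz, hzx⟩ := h2
    rwa [← e.injective hzx]
  · let f : K ≃* K.map e.toMonoidHom := e.subgroupMap K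
    exact cs_congr f h.2.2 L hL

/-- generated by an involution and another element -/
def InvGen (K : Type*) [Group K] : Prop := ∃ t g : K, t ≠ 1 ∧ t ^ 2 = 1 ∧ closure {t, g} = ⊤

theorem InvGen.congr {K K' : Type*} [Group K] [Group K'] (e : K ≃* K') (h : InvGen K') : InvGen K := by
  obtain ⟨t, g, h1, h2, h3⟩ := h
  refine ⟨e.symm t, e.symm g, fun h4 => h1 ?_, by rw [← map_pow, h2, map_one], ?_⟩
  · rw [← e.apply_symm_apply t, h4, map_one]
  · have h4 := congrArg (Subgroup.map e.symm.toMonoidHom) h3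
    rw [MonoidHom.map_closure, Set.image_pair] at h4
    have h5 : (⊤ : Subgroup K').map e.symm.toMonoidHom = ⊤ := by
      rw [← MonoidHom.range_eq_map, MonoidHom.range_eq_top]
      exact e.symm.surjective
    rw [h5] at h4
    exact h4

/-- `M11` -/
theorem invGen_M11 {K : Type*} [Group K] (h : Spor.IsoM11 K) : InvGen K := by
  obtain ⟨e⟩ := h
  refine InvGen.congr e ⟨⟨Cfsg.Agent.H994.TwoGen.M11.Y, Cfsg.Agent.H994.TwoGen.M11.Y_mem⟩,
    ⟨Cfsg.Agent.H994.TwoGen.M11.X, Cfsg.Agent.H994.TwoGen.M11.X_mem⟩, ?_, ?_, ?_⟩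
  · intro h
    have h1 : Cfsg.Agent.H994.TwoGen.M11.Y = 1 := congrArg Subtype.val h
    have h2 : Cfsg.Agent.H994.TwoGen.M11.Y (some 1) = some 1 := by rw [h1]; rfl
    revert h2
    decide +kernel
  · apply Subtype.ext
    show Cfsg.Agent.H994.TwoGen.M11.Y ^ 2 = 1
    rw [pow_two]
    apply Equiv.ext
    intro z
    rw [Equiv.Perm.mul_apply, Equiv.Perm.one_apply]
    revert z
    decide +kernel
  · have h1 := Cfsg.Agent.H994.TwoGen.M11.closure_eq
    rw [Set.pair_comm] at h1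
    have h2 : (closure {(⟨Cfsg.Agent.H994.TwoGen.M11.Y, Cfsg.Agent.H994.TwoGen.M11.Y_mem⟩ : Spor.M11),
        ⟨Cfsg.Agent.H994.TwoGen.M11.X, Cfsg.Agent.H994.TwoGen.M11.X_mem⟩}).map Spor.M11.subtype =
        (⊤ : Subgroup Spor.M11).map Spor.M11.subtype := by
      rw [MonoidHom.map_closure, Set.image_pair, ← MonoidHom.range_eq_map, Subgroup.range_subtype]
      exact h1
    exact Subgroup.map_injective Spor.M11.subtype_injective h2

/-- groups with the property `Spr` -/
theorem invGen_spr {K : Type*} [Group K] (h : Cfsg.Agent.H424.Spr.Spr K) {t : K} (ht1 : t ≠ 1) (ht2 : t ^ 2 = 1)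
    (hz : ∀ z : K, (∀ k, z * k = k * z) → z = 1) : InvGen K := by
  obtain ⟨x, hx⟩ := h (MulAut.conj t) (by
    intro h1
    apply ht1
    apply hz
    intro k
    have h2 := congrArg (fun σ : MulAut K => σ k) h1
    have h3 : t * k * t⁻¹ = k := h2
    rwa [mul_inv_eq_iff_eq_mul] at h3)
  refine ⟨t, x, ht1, ht2, hx _ (subset_closure (Or.inr rfl)) ?_⟩
  intro k hk
  rw [MulAut.conj_apply]
  have htm : t ∈ closure {t, x} := subset_closure (Or.inl rfl)
  exact mul_mem (mul_mem htm hk) (inv_mem htm)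

theorem card_alt_ge {n : ℕ} (hn : 5 ≤ n) : ∃ t : alternatingGroup (Fin n), t ≠ 1 ∧ t ^ 2 = 1 := by
  have : Fact (Nat.Prime 2) := ⟨Nat.prime_two⟩
  have h2 : 2 ∣ Nat.card (alternatingGroup (Fin n)) := by
    have hnt : Nontrivial (Fin n) := Fin.nontrivial_iff_two_le.2 (by omega)
    have h1 := two_mul_nat_card_alternatingGroup (α := Fin n)
    rw [Nat.card_perm, Nat.card_fin] at h1
    have h3 : 2 * 2 ∣ n.factorial := Dvd.dvd.trans (by decide) (Nat.factorial_dvd_factorial (show 4 ≤ n by omega))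
    rw [← h1] at h3
    exact Nat.dvd_of_mul_dvd_mul_left (by norm_num) h3
  obtain ⟨t, ht⟩ := exists_prime_orderOf_dvd_card' 2 h2
  refine ⟨t, ?_, by rw [← ht]; exact pow_orderOf_eq_one t⟩
  rintro rfl
  rw [orderOf_one] at ht
  omega

theorem center_triv {K : Type*} [Group K] [IsSimpleGroup K] (hna : ¬ IsMulCommutative K) (z : K)
    (hz : ∀ k, z * k = k * z) : z = 1 := by
  have h1 : z ∈ center K := mem_center_iff.2 fun k => (hz k).symm
  rcases (inferInstance : (center K).Normal).eq_bot_or_eq_top with h2 | h2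
  · rwa [h2, mem_bot] at h1
  · exfalso
    apply hna
    refine ⟨⟨fun a b => ?_⟩⟩
    have h3 : b ∈ center K := by rw [h2]; trivial
    exact mem_center_iff.1 h3 a

theorem invGen_alt {K : Type*} [Group K] [IsSimpleGroup K] (hna : ¬ IsMulCommutative K) {n : ℕ} (hn : 5 ≤ n)
    (e : K ≃* alternatingGroup (Fin n)) : InvGen K := by
  obtain ⟨t, ht1, ht2⟩ := card_alt_ge hn
  have hna' : ∃ x y : K, x * y ≠ y * x := by
    by_contra hcon
    push Not at hcon
    exact hna ⟨⟨hcon⟩⟩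
  refine invGen_spr (Cfsg.Agent.H424.SprAlt.row_alternating hna' ⟨n, hn, ⟨e⟩⟩) (t := e.symm t) ?_ ?_ (center_triv hna)
  · intro h1
    apply ht1
    rw [← e.apply_symm_apply t, h1, map_one]
  · rw [← map_pow, ht2, map_one]

/-- **simple subgroups of `M12`** -/
theorem simple_cases {K : Subgroup Spor.M12} (hK : K ≠ ⊤) [IsSimpleGroup K] (hna : ¬ IsMulCommutative K)
    (h : 5 ∣ Nat.card K ∨ 11 ∣ Nat.card K) : InvGen K ∧ 60 ≤ Nat.card K := by
  have hd : Nat.card K ∣ 95040 := by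
    rw [← MTw.card_G]
    exact Subgroup.card_subgroup_dvd_card _
  by_cases h11 : 11 ∣ Nat.card K
  · rcases simple_orders MTw.card_G MTw.cent_eleven K hna h11 with h1 | h1 | h1
    · exact ⟨gen_660 h1, by rw [h1]; norm_num⟩
    · refine ⟨invGen_M11 (Cfsg.Agent.TwoGenCore.IsoMEleven.isoM11 ⟨inferInstance, h1⟩), by rw [h1]; norm_num⟩
    · exfalso
      apply hK
      exact Subgroup.eq_top_of_card_eq K (by rw [h1, MTw.card_G])
  · have h5 : 5 ∣ Nat.card K := h.resolve_right h11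
    have hd2 : Nat.card K ∣ 8640 := by
      have h1 : Nat.Coprime (Nat.card K) 11 := ((Nat.Prime.coprime_iff_not_dvd (by norm_num)).2 h11).symm
      exact Nat.Coprime.dvd_of_dvd_mul_right h1 (show Nat.card K ∣ 8640 * 11 by norm_num; exact hd)
    obtain ⟨m, hm⟩ := h5
    have hm2 : m ∣ 2 ^ 6 * 3 ^ 3 := by
      rw [hm] at hd2
      exact Nat.dvd_of_mul_dvd_mul_left (k := 5) (by norm_num) (by norm_num; exact hd2)
    obtain ⟨a, b, -, -, hab⟩ : ∃ a b, a ≤ 6 ∧ b ≤ 3 ∧ m = 3 ^ b * 2 ^ a := by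
      obtain ⟨u, v, hu, hv, rfl⟩ := (Nat.dvd_mul.1 hm2)
      obtain ⟨a, ha, rfl⟩ := (Nat.dvd_prime_pow Nat.prime_two).1 hu
      obtain ⟨b, hb, rfl⟩ := (Nat.dvd_prime_pow Nat.prime_three).1 hv
      exact ⟨a, b, ha, hb, mul_comm _ _⟩
    have hc : Nat.card K = 5 * 3 ^ b * 2 ^ a := by rw [hm, hab, mul_assoc]
    have hkn := Cfsg.Agent.S1000.result hna 5 b a (by norm_num) hc
    rcases Cfsg.Agent.SmallSimple.S1000.Consequences.known_cases hkn with h1 | h1 | h1 | h1 | h1 | h1 | h1 | h1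
    · obtain ⟨h2, ⟨e⟩⟩ := h1
      exact ⟨invGen_alt hna le_rfl e, h2.ge⟩
    · obtain ⟨h2, ⟨e⟩⟩ := h1
      exact ⟨invGen_alt hna (by norm_num) e, by rw [h2]; norm_num⟩
    all_goals
      exfalso
      have h2 := h1.1
      rw [h2] at hd2
      norm_num at hd2

/-- the simple subgroups -/
def TG : Set (Subgroup Spor.M12) :=
  {K | (∃ a ∈ {x : Spor.M12 | x ≠ 1 ∧ x ^ 2 = 1}, ∃ b, closure {a, b} = K) ∧
    (∀ z ∈ K, (∀ k ∈ K, z * k = k * z) → z = 1) ∧ 60 ≤ Nat.card K}

theorem tg_card : TG.ncard ≤ 1411344 := by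
  have h1 := card_two_gen (G := Spor.M12) {x : Spor.M12 | x ≠ 1 ∧ x ^ 2 = 1} (by
    rintro a ⟨ha1, ha2⟩ g
    refine ⟨fun h => ha1 ?_, ?_⟩
    · rw [mul_inv_eq_one] at h
      exact mul_eq_left.1 h
    · rw [conj_pow, ha2, mul_one, mul_inv_cancel]) 60 TG (fun K hK => hK)
  have h2 := h1.trans (Nat.mul_le_mul_right _ MTw.card_inv)
  rw [MTw.card_G] at h2
  omega

theorem mem_TG {K : Subgroup Spor.M12} (hK : K ≠ ⊤) [IsSimpleGroup K] (hna : ¬ IsMulCommutative K)
    (h : 5 ∣ Nat.card K ∨ 11 ∣ Nat.card K) : K ∈ TG := by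
  obtain ⟨⟨t, g, h1, h2, h3⟩, h4⟩ := simple_cases hK hna h
  refine ⟨⟨t, ⟨fun h5 => h1 (Subtype.ext h5), ?_⟩, g, ?_⟩, ?_, h4⟩
  · have := congrArg Subtype.val h2
    exact this
  · have h5 := congrArg (Subgroup.map K.subtype) h3
    rw [MonoidHom.map_closure, Set.image_pair, ← MonoidHom.range_eq_map, Subgroup.range_subtype] at h5
    exact h5
  · intro z hz hzk
    have h5 := center_triv hna ⟨z, hz⟩ (fun k => Subtype.ext (hzk k k.2))
    exact congrArg Subtype.val h5

/-- **The number of characteristically simple proper subgroups of `M12`.** -/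
theorem good_card : {K : Subgroup Spor.M12 | Good K}.ncard ≤ 2457257 := by
  have h1 : {K : Subgroup Spor.M12 | Good K} ⊆
      (((EA Spor.M12 2 1 ∪ EA Spor.M12 2 2) ∪ (EA Spor.M12 2 3 ∪ EA Spor.M12 3 1)) ∪
        ((EA Spor.M12 3 2 ∪ EA Spor.M12 3 3) ∪ (EA Spor.M12 5 1 ∪ EA Spor.M12 11 1))) ∪ TG := by
    intro K hK
    obtain ⟨h1, h2, h3⟩ := hK
    have hnt : Nontrivial K := (Subgroup.nontrivial_iff_ne_bot K).2 h1
    have hd : Nat.card K ∣ 95040 := by
      rw [← MTw.card_G]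
      exact Subgroup.card_subgroup_dvd_card _
    rcases char_cases h3 hd with ⟨p, hp, hab, hpK⟩ | ⟨hs, hna, h5⟩
    · left
      rcases MTw.ea_cases hp h1 (fun a ha b hb => congrArg Subtype.val (hab ⟨a, ha⟩ ⟨b, hb⟩))
        (fun a ha => congrArg Subtype.val (hpK ⟨a, ha⟩)) with ((h | h | h) | (h | h | h)) | (h | h)
      · exact Or.inl (Or.inl (Or.inl h))
      · exact Or.inl (Or.inl (Or.inr h))
      · exact Or.inl (Or.inr (Or.inl h))
      · exact Or.inl (Or.inr (Or.inr h))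
      · exact Or.inr (Or.inl (Or.inl h))
      · exact Or.inr (Or.inl (Or.inr h))
      · exact Or.inr (Or.inr (Or.inl h))
      · exact Or.inr (Or.inr (Or.inr h))
    · right
      exact mem_TG h2 hna h5
  have hU : ∀ (A B : Set (Subgroup Spor.M12)) (a b : ℕ), A.ncard ≤ a → B.ncard ≤ b → (A ∪ B).ncard ≤ a + b :=
    fun A B a b ha hb => (Set.ncard_union_le A B).trans (Nat.add_le_add ha hb)
  exact (Set.ncard_le_ncard h1 (Set.toFinite _)).trans
    (hU _ _ _ _ (hU _ _ _ _ (hU _ _ _ _ (hU _ _ _ _ MTw.ea21 MTw.ea22) (hU _ _ _ _ MTw.ea23 MTw.ea31))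
      (hU _ _ _ _ (hU _ _ _ _ MTw.ea32 MTw.ea33) (hU _ _ _ _ MTw.ea5 MTw.ea11))) tg_card)

/-- for groups isomorphic to `M12` -/
theorem good_card_of {G : Type*} [Group G] (e : G ≃* Spor.M12) : {K : Subgroup G | Good K}.ncard ≤ 2457257 := by
  refine le_trans (Set.ncard_le_ncard_of_injOn (fun K => K.map e.toMonoidHom) ?_ ?_ (Set.toFinite _)) good_card
  · intro K hK
    exact Good.map e hK
  · intro K _ L _ h
    exact Subgroup.map_injective e.injective h

theorem card_prime_of {G : Type*} [Group G] (e : G ≃* Spor.M12) :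
    {K : Subgroup G | (Nat.card K).Prime}.ncard ≤ 21147 := by
  refine le_trans (Set.ncard_le_ncard_of_injOn (fun K => K.map e.toMonoidHom) ?_ ?_ (Set.toFinite _)) MTw.card_prime
  · intro K hK
    have h1 : Nat.card (K.map e.toMonoidHom) = Nat.card K :=
      Subgroup.card_map_of_injective (f := e.toMonoidHom) e.injective
    show (Nat.card (K.map e.toMonoidHom)).Prime
    rw [h1]
    exact hK
  · intro K _ L _ h
    exact Subgroup.map_injective e.injective h

end Cfsg.Agent.H640.EPC
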