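import Cfsg.Agent.H640.EPC.Gd
import Cfsg.Agent.H284.EP.TForm
import Cfsg.Agent.S0383
import Cfsg.Agent.CoThreeStd.M12.Out

/-!
# S3499-IV-L, row `soc(A) = M12` (helper640)

* `inv_N` : the simple normal subgroup `N` of `A` with `C_A(N) = 1` is invariant under `Γ`;
* `sq_mem` : `a ^ 2 ∈ N` for `a ∈ A` if `α ^ 2` is inner for all automorphisms `α` of `N`;
* `inf_ne_bot` : then `N ∩ A^x ≠ 1` for `x ∉ A`;
* `exists_good` : `A ∩ A^x = N_A(K)` for a characteristically simple proper subgroup `K` of `N`;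
* `index_le_of_counts` : `|Q : A| ≤ s r`, `s` the number of subgroups of prime order of `N`, `r` the number of
  characteristically simple proper subgroups of `N`;
* `m12_index` : `soc(A) = M12` implies `|Q : A| ≤ 2 ^ 36`.
-/

set_option autoImplicit false
set_option linter.unusedSectionVars false

namespace Cfsg.Agent.H640.EPC

open MulAction Subgroup Cfsg Cfsg.Agent.H284
open scoped Pointwise

section

variable {Q : Type*} [Group Q] [Finite Q] {A : Subgroup Q} {Γ : Subgroup (MulAut Q)} (h : EPT A Γ)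
  {N : Subgroup Q} (hNA : N ≤ A) (hN : ∀ a ∈ A, ∀ n ∈ N, a * n * a⁻¹ ∈ N)
  (hC : ∀ a ∈ A, (∀ n ∈ N, a * n = n * a) → a = 1)

include hNA hN in
/-- subgroups of `A` normalised by `A`: they contain `N` or centralise `N` -/
theorem le_or_comm [IsSimpleGroup N] {M : Subgroup Q} (hMA : M ≤ A) (hM : ∀ a ∈ A, ∀ m ∈ M, a * m * a⁻¹ ∈ M) :
    N ≤ M ∨ ∀ m ∈ M, ∀ n ∈ N, m * n = n * m := by
  have hn : (M.subgroupOf N).Normal := ⟨by
    rintro ⟨m, hmN⟩ hm ⟨g, hg⟩
    exact hM g (hNA hg) m hm⟩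
  rcases hn.eq_bot_or_eq_top with h1 | h1
  · right
    intro m hm n hn
    have h2 : m * n * m⁻¹ * n⁻¹ ∈ N := N.mul_mem (hN m (hMA hm) n hn) (N.inv_mem hn)
    have h3 : m * n * m⁻¹ * n⁻¹ ∈ M := by
      have h4 : m * n * m⁻¹ * n⁻¹ = m * (n * m⁻¹ * n⁻¹) := by group
      rw [h4]
      exact M.mul_mem hm (hM n (hNA hn) _ (M.inv_mem hm))
    have h5 : (⟨m * n * m⁻¹ * n⁻¹, h2⟩ : N) ∈ M.subgroupOf N := h3
    rw [h1, mem_bot] at h5
    have h6 : m * n * m⁻¹ * n⁻¹ = 1 := congrArg Subtype.val h5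
    rw [mul_inv_eq_one, mul_inv_eq_iff_eq_mul] at h6
    exact h6
  · left
    intro n hn
    have h2 : (⟨n, hn⟩ : N) ∈ M.subgroupOf N := by rw [h1]; trivial
    exact h2

include h hNA hN hC in
/-- **`N` is invariant under `Γ`** -/
theorem inv_N [IsSimpleGroup N] {σ : MulAut Q} (hσ : σ ∈ Γ) {n : Q} (hn : n ∈ N) : σ n ∈ N := by
  have hMA : N.map σ.toMonoidHom ≤ A := by
    rintro _ ⟨m, hm, rfl⟩
    exact (h.inv σ hσ m).2 (hNA hm)
  have hM : ∀ a ∈ A, ∀ m ∈ N.map σ.toMonoidHom, a * m * a⁻¹ ∈ N.map σ.toMonoidHom := by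
    rintro a ha _ ⟨m, hm, rfl⟩
    have h1 : σ⁻¹ a ∈ A := (h.inv _ (Γ.inv_mem hσ) a).2 ha
    refine ⟨σ⁻¹ a * m * (σ⁻¹ a)⁻¹, hN _ h1 m hm, ?_⟩
    show σ (σ⁻¹ a * m * (σ⁻¹ a)⁻¹) = a * σ m * a⁻¹
    rw [map_mul, map_mul, map_inv, MulAut.apply_inv_self]
  rcases le_or_comm hNA hN hMA hM with h1 | h1
  · have h2 : N = N.map σ.toMonoidHom := by
      refine Subgroup.eq_of_le_of_card_ge h1 ?_
      rw [Subgroup.card_map_of_injective (f := σ.toMonoidHom) σ.injective]
    rw [h2]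
    exact ⟨n, hn, rfl⟩
  · have h2 := hC (σ n) (hMA ⟨n, hn, rfl⟩) (h1 _ ⟨n, hn, rfl⟩)
    rw [h2]
    exact N.one_mem

include hNA hN hC in
/-- **`a ^ 2 ∈ N` for `a ∈ A`** -/
theorem sq_mem (hout : ∀ α : MulAut N, ∃ g, α * α = MulAut.conj g) {a : Q} (ha : a ∈ A) : a * a ∈ N := by
  let α : MulAut N :=
    { toFun := fun n => ⟨a * n * a⁻¹, hN a ha n n.2⟩
      invFun := fun n => ⟨a⁻¹ * n * a, by
        have h1 := hN _ (A.inv_mem ha) n n.2
        rwa [inv_inv] at h1⟩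
      left_inv := fun n => Subtype.ext (by
        show a⁻¹ * (a * n * a⁻¹) * a = n
        group)
      right_inv := fun n => Subtype.ext (by
        show a * (a⁻¹ * n * a) * a⁻¹ = n
        group)
      map_mul' := fun m n => Subtype.ext (by
        show a * (m * n) * a⁻¹ = a * m * a⁻¹ * (a * n * a⁻¹)
        group) }
  obtain ⟨g, hg⟩ := hout α
  have h1 : (g : Q)⁻¹ * (a * a) = 1 := by
    refine hC _ (A.mul_mem (A.inv_mem (hNA g.2)) (A.mul_mem ha ha)) fun n hn => ?_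
    have h2 := congrArg (fun σ : MulAut N => ((σ ⟨n, hn⟩ : N) : Q)) hg
    have h3 : a * (a * n * a⁻¹) * a⁻¹ = g * n * (g : Q)⁻¹ := h2
    have h4 : (g : Q)⁻¹ * (a * a) * n = (g : Q)⁻¹ * (a * (a * n * a⁻¹) * a⁻¹) * (a * a) := by group
    rw [h4, h3]
    group
  have h2 : a * a = g := by
    rw [inv_mul_eq_one] at h1
    exact h1.symm
  rw [h2]
  exact g.2

include h hNA hN hC in
/-- **`N ∩ A^x ≠ 1`** -/
theorem inf_ne_bot [IsSimpleGroup N] (hna : ¬ IsMulCommutative N)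
    (hout : ∀ α : MulAut N, ∃ g, α * α = MulAut.conj g) {x : Q} (hx : x ∉ A) : N ⊓ cj x A ≠ ⊥ := by
  intro hbot
  have hsq : ∀ a ∈ A ⊓ cj x A, a * a = 1 := by
    intro a ha
    have h1 : a * a ∈ N ⊓ cj x A :=
      ⟨sq_mem hNA hN hC hout (mem_inf.1 ha).1, (cj x A).mul_mem (mem_inf.1 ha).2 (mem_inf.1 ha).2⟩
    rwa [hbot, mem_bot] at h1
  obtain ⟨K, hKA, hKΓ, hK1, hKab⟩ := h.abM0 x hx (by
    intro a ha b hb
    have h1 := hsq _ (mul_mem ha hb)
    have h2 : a * (a * b * (a * b)) * b = b * a * (b * b) * (a * a) * (a * b)⁻¹ * (a * b) := by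
      rw [h1, hsq a ha, hsq b hb]
      have h3 := hsq _ (mul_mem hb ha)
      have h4 : b * a = (b * a)⁻¹ := by rw [eq_inv_iff_mul_eq_one]; exact h3
      have h5 : a⁻¹ = a := inv_eq_of_mul_eq_one_left (hsq a ha)
      have h6 : b⁻¹ = b := inv_eq_of_mul_eq_one_left (hsq b hb)
      rw [mul_inv_rev, h5, h6] at h4
      rw [h4, mul_one, mul_one, mul_one]
      group
    have h3 := hsq _ (mul_mem hb ha)
    have h4 : b * a = (b * a)⁻¹ := by rw [eq_inv_iff_mul_eq_one]; exact h3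
    have h5 : a⁻¹ = a := inv_eq_of_mul_eq_one_left (hsq a ha)
    have h6 : b⁻¹ = b := inv_eq_of_mul_eq_one_left (hsq b hb)
    rw [mul_inv_rev, h5, h6] at h4
    exact h4.symm)
  have hKn : ∀ a ∈ A, ∀ k ∈ K, a * k * a⁻¹ ∈ K := fun a ha k hk => hKΓ _ ((h.conj a).2 ha) k hk
  rcases le_or_comm hNA hN hKA hKn with h1 | h1
  · apply hna
    exact ⟨⟨fun a b => Subtype.ext (hKab a (h1 a.2) b (h1 b.2))⟩⟩
  · apply hK1
    rw [Subgroup.eq_bot_iff_forall]
    intro k hk
    exact hC k (hKA hk) (h1 k hk)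

include h hNA hN hC in
/-- **`A ∩ A^x` is the normaliser in `A` of a characteristically simple proper subgroup of `N`** -/
theorem exists_good [IsSimpleGroup N] (hna : ¬ IsMulCommutative N)
    (hout : ∀ α : MulAut N, ∃ g, α * α = MulAut.conj g) {x : Q} (hx : x ∉ A) :
    ∃ K : Subgroup Q, K ≤ N ∧ Good (K.subgroupOf N) ∧ ∀ a, a ∈ A ⊓ cj x A ↔ a ∈ A ∧ ∀ k ∈ K, a * k * a⁻¹ ∈ K := by
  set X : Set (Subgroup Q) := {K | K ≤ N ⊓ cj x A ∧ K ≠ ⊥ ∧ ∀ σ ∈ Γ, x⁻¹ * σ x ∈ A → ∀ k ∈ K, σ k ∈ K} with hX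
  have hXf : X.Finite := Set.toFinite _
  have hXn : (N ⊓ cj x A) ∈ X := by
    refine ⟨le_rfl, inf_ne_bot h hNA hN hC hna hout hx, ?_⟩
    intro σ hσ hσx k hk
    refine ⟨inv_N h hNA hN hC hσ (mem_inf.1 hk).1, ?_⟩
    exact (mem_inf.1 (h.stab_M0 hσ hσx (y := k) ⟨hNA (mem_inf.1 hk).1, (mem_inf.1 hk).2⟩)).2
  obtain ⟨K, hK⟩ := hXf.exists_minimal ⟨_, hXn⟩
  obtain ⟨hKle, hK1, hKΓ⟩ := hK.prop
  have hKN : K ≤ N := hKle.trans inf_le_left
  have hKM : K ≤ A ⊓ cj x A := hKle.trans (inf_le_inf_right _ hNA)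
  refine ⟨K, hKN, ⟨?_, ?_, ?_⟩, fun a => ⟨fun ha => ⟨(mem_inf.1 ha).1, ?_⟩, fun ha => ⟨ha.1, ?_⟩⟩⟩
  · intro h1
    apply hK1
    rw [Subgroup.eq_bot_iff_forall]
    intro k hk
    have h2 : (⟨k, hKN hk⟩ : N) ∈ K.subgroupOf N := hk
    rw [h1, mem_bot] at h2
    exact congrArg Subtype.val h2
  · intro h1
    have h2 : N = ⊥ := by
      refine h.F1 x hx N hNA (fun σ hσ k hk => inv_N h hNA hN hC hσ hk) ?_
      intro n hn
      have h3 : (⟨n, hn⟩ : N) ∈ K.subgroupOf N := by rw [h1]; trivial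
      exact (mem_inf.1 (hKle h3)).2
    have hnt : Nontrivial N := IsSimpleGroup.toNontrivial
    exact ((Subgroup.nontrivial_iff_ne_bot N).1 hnt) h2
  · refine cs_congr (Subgroup.subgroupOfEquivOfLe hKN).symm ?_
    intro L hL
    by_contra hcon
    push Not at hcon
    obtain ⟨hL1, hL2⟩ := hcon
    have hmem : L.map K.subtype ∈ X := by
      refine ⟨(map_subtype_le L).trans hKle, ?_, ?_⟩
      · rwa [Ne, Subgroup.map_eq_bot_iff_of_injective _ K.subtype_injective]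
      · intro σ hσ hσx
        have hs : ∀ y : K, σ y ∈ K := fun y => hKΓ σ hσ hσx y y.2
        let f : K →* K := (σ.toMonoidHom.comp K.subtype).codRestrict _ hs
        have hf : Function.Injective f := by
          intro y z e
          have e' : σ y = σ z := Subtype.ext_iff.1 e
          exact Subtype.ext (σ.injective e')
        let τ : MulAut K := MulEquiv.ofBijective f (Finite.injective_iff_bijective.1 hf)
        have hτ : L.map τ.toMonoidHom = L := Subgroup.characteristic_iff_map_eq.1 hL τ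
        rintro _ ⟨k, hk, rfl⟩
        have h1 : τ k ∈ L := by
          rw [← hτ]
          exact ⟨k, hk, rfl⟩
        exact ⟨τ k, h1, rfl⟩
    have h2 := hK.le_of_le hmem (map_subtype_le L)
    apply hL2
    rw [eq_top_iff]
    intro k _
    obtain ⟨l, hl, hlk⟩ := h2 k.2
    rwa [← Subtype.ext hlk]
  · intro k hk
    exact hKΓ _ ((h.conj a).2 (mem_inf.1 ha).1) ((h.conj_stab (mem_inf.1 ha).1).2 (mem_inf.1 ha).2) k hk
  · exact (h.conj_stab ha.1).1 (h.norm x hx K hKM hKΓ hK1 _ ((h.conj a).2 ha.1) ha.2)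

include h hNA hN hC in
/-- the number of two-point stabilisers -/
theorem stab_card [IsSimpleGroup N] (hna : ¬ IsMulCommutative N)
    (hout : ∀ α : MulAut N, ∃ g, α * α = MulAut.conj g) :
    {M : Subgroup Q | ∃ x, x ∉ A ∧ M = A ⊓ cj x A}.ncard ≤ {K : Subgroup N | Good K}.ncard := by
  have hch : ∀ M : {M : Subgroup Q | ∃ x, x ∉ A ∧ M = A ⊓ cj x A}, ∃ K : Subgroup Q, K ≤ N ∧
      Good (K.subgroupOf N) ∧ ∀ a, a ∈ (M : Subgroup Q) ↔ a ∈ A ∧ ∀ k ∈ K, a * k * a⁻¹ ∈ K := by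
    rintro ⟨M, x, hx, rfl⟩
    exact exists_good h hNA hN hC hna hout hx
  choose f hf1 hf2 hf3 using hch
  have hfin : Finite {K : Subgroup N | Good K} := inferInstance
  rw [← Nat.card_coe_set_eq, ← Nat.card_coe_set_eq]
  refine Nat.card_le_card_of_injective (fun M => (⟨(f M).subgroupOf N, hf2 M⟩ : {K : Subgroup N | Good K})) ?_
  intro M M' hMM
  have h1 : (f M).subgroupOf N = (f M').subgroupOf N := congrArg Subtype.val hMM
  have h2 : f M = f M' := by
    have h3 := congrArg (Subgroup.map N.subtype) h1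
    rwa [subgroupOf_map_subtype, subgroupOf_map_subtype, inf_eq_left.2 (hf1 M), inf_eq_left.2 (hf1 M')] at h3
  apply Subtype.ext
  ext a
  rw [hf3 M, hf3 M', h2]

include h hNA hN hC in
/-- **The bound for the index.** -/
theorem index_le_of_counts [IsSimpleGroup N] (hna : ¬ IsMulCommutative N)
    (hout : ∀ α : MulAut N, ∃ g, α * α = MulAut.conj g) {r s : ℕ} (hr : {K : Subgroup N | Good K}.ncard ≤ r)
    (hs : {K : Subgroup N | (Nat.card K).Prime}.ncard ≤ s) : A.index ≤ s * r := by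
  classical
  have hfix := (stab_card h hNA hN hC hna hout).trans hr
  -- a nontrivial element of each subgroup of prime order
  have hP : ∀ P : {K : Subgroup N | (Nat.card K).Prime}, ∃ t : N, t ∈ (P : Subgroup N) ∧ (t : Q) ≠ 1 := by
    rintro ⟨P, hP⟩
    have hP' : (Nat.card P).Prime := hP
    have h1 : P ≠ ⊥ := by
      rintro rfl
      rw [card_bot] at hP'
      exact Nat.not_prime_one hP'
    obtain ⟨t, ht⟩ := Subgroup.ne_bot_iff_exists_ne_one.1 h1
    refine ⟨t, t.2, fun h2 => ht (Subtype.ext (Subtype.ext h2))⟩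
  choose t ht1 ht2 using hP
  -- a nontrivial subgroup contains a subgroup of prime order
  have hprime : ∀ L : Subgroup Q, L ≠ ⊥ → L ≤ N → ∃ P : {K : Subgroup N | (Nat.card K).Prime}, (t P : Q) ∈ L := by
    intro L hL hLN
    have h1 : Nat.card L ≠ 1 := fun h2 => hL (Subgroup.card_eq_one.1 h2)
    have hp := Nat.minFac_prime h1
    have := Fact.mk hp
    obtain ⟨u, hu⟩ := exists_prime_orderOf_dvd_card' (G := L) _ (Nat.minFac_dvd (Nat.card L))
    have h2 : Nat.card (zpowers (⟨u, hLN u.2⟩ : N)) = (Nat.card L).minFac := by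
      rw [Nat.card_zpowers, Subgroup.orderOf_mk, Subgroup.orderOf_coe, hu]
    refine ⟨⟨zpowers (⟨u, hLN u.2⟩ : N), by rw [Set.mem_ofPred_eq, h2]; exact hp⟩, ?_⟩
    obtain ⟨k, hk⟩ := mem_zpowers_iff.1 (ht1 ⟨zpowers (⟨u, hLN u.2⟩ : N), by rw [Set.mem_ofPred_eq, h2]; exact hp⟩)
    rw [← hk]
    exact L.zpow_mem u.2 k
  have hcov : ∀ c : Q ⧸ A, ∃ P : {K : Subgroup N | (Nat.card K).Prime}, (t P : Q) • c = c := by
    intro c
    induction c using QuotientGroup.induction_on with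
    | H x =>
      have key : ∀ u : Q, u ∈ cj x A → u • (x : Q ⧸ A) = x := by
        intro u hu
        rw [MulAction.Quotient.smul_coe, smul_eq_mul, eq_comm, QuotientGroup.eq]
        have h1 := mem_cj.1 hu
        rwa [mul_assoc] at h1
      by_cases hx : x ∈ A
      · have hnt : Nontrivial N := IsSimpleGroup.toNontrivial
        obtain ⟨P, hP⟩ := hprime N ((Subgroup.nontrivial_iff_ne_bot N).1 hnt) le_rfl
        refine ⟨P, key _ (mem_cj.2 ?_)⟩
        exact A.mul_mem (A.mul_mem (A.inv_mem hx) (hNA hP)) hx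
      · obtain ⟨P, hP⟩ := hprime _ (inf_ne_bot h hNA hN hC hna hout hx) inf_le_left
        exact ⟨P, key _ (mem_inf.1 hP).2⟩
  choose g hg using hcov
  have := Fintype.ofFinite {K : Subgroup N | (Nat.card K).Prime}
  have h1 : Nat.card (Q ⧸ A) ≤ Nat.card (Σ P : {K : Subgroup N | (Nat.card K).Prime},
      {c : Q ⧸ A | (t P : Q) • c = c}) := by
    refine Nat.card_le_card_of_injective (fun c => ⟨g c, c, hg c⟩) ?_
    intro c d hcd
    have h2 := congrArg (fun z : Σ P : {K : Subgroup N | (Nat.card K).Prime},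
      {c : Q ⧸ A | (t P : Q) • c = c} => (z.2 : Q ⧸ A)) hcd
    exact h2
  rw [Nat.card_sigma] at h1
  have h2 : ∑ P : {K : Subgroup N | (Nat.card K).Prime}, Nat.card {c : Q ⧸ A | (t P : Q) • c = c} ≤
      Fintype.card {K : Subgroup N | (Nat.card K).Prime} * r := by
    have h3 := Finset.sum_le_card_nsmul (Finset.univ : Finset {K : Subgroup N | (Nat.card K).Prime})
      (fun P => Nat.card {c : Q ⧸ A | (t P : Q) • c = c}) r (fun P _ => by
        show Nat.card {c : Q ⧸ A | (t P : Q) • c = c} ≤ r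
        rw [Nat.card_coe_set_eq]
        exact (h.fix_le _ (ht2 P)).trans hfix)
    rwa [smul_eq_mul, Finset.card_univ] at h3
  rw [← Nat.card_eq_fintype_card, Nat.card_coe_set_eq] at h2
  exact h1.trans (h2.trans (Nat.mul_le_mul_right _ hs))

end

/-- squares of automorphisms of `M12` are inner -/
theorem out_M12 {N : Type*} [Group N] (e : N ≃* Spor.M12) (α : MulAut N) : ∃ g, α * α = MulAut.conj g := by
  set β : MulAut Spor.M12 := MulAut.congr e α with hβ
  have h1 : β * β ∈ (MulAut.conj : Spor.M12 →* MulAut Spor.M12).range := by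
    by_cases hb : β ∈ (MulAut.conj : Spor.M12 →* MulAut Spor.M12).range
    · exact mul_mem hb hb
    · exact Cfsg.Agent.CoThreeStd.M12.Out.out_spor hb hb
  obtain ⟨g, hg⟩ := h1
  refine ⟨e.symm g, ?_⟩
  apply (MulAut.congr e).injective
  rw [map_mul, ← hβ, ← hg]
  refine MulEquiv.ext fun y => ?_
  show MulAut.conj g y = e (MulAut.conj (e.symm g) (e.symm y))
  rw [MulAut.conj_apply, MulAut.conj_apply, map_mul, map_mul, map_inv, e.apply_symm_apply, e.apply_symm_apply]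

/-- The two descriptions of `M12`. -/
def stabEquiv : ↥(MulAction.stabilizer Cfsg.M24 Cfsg.Spor.squareDodecad) ≃* Cfsg.Spor.M12 where
  toFun g := ⟨((g : Cfsg.M24) : Equiv.Perm GolayPt), (g : Cfsg.M24).2, g.2⟩
  invFun g := ⟨⟨(g : Equiv.Perm GolayPt), g.2.1⟩, g.2.2⟩
  left_inv _ := rfl
  right_inv _ := rfl
  map_mul' _ _ := rfl

theorem simple_M12 : IsSimpleGroup Spor.M12 := by
  have := Cfsg.Agent.S0383.result _ Cfsg.Agent.CoThreeStd.M12.dodecad_mem
  exact stabEquiv.symm.isSimpleGroup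

/-- **Row `soc(A) = M12`.** -/
theorem m12_index {Q : Type*} [Group Q] [Finite Q] {A : Subgroup Q} {Γ : Subgroup (MulAut Q)} (h : EPT A Γ)
    {N : Subgroup Q} (hNA : N ≤ A) (hN : ∀ a ∈ A, ∀ n ∈ N, a * n * a⁻¹ ∈ N)
    (hC : ∀ a ∈ A, (∀ n ∈ N, a * n = n * a) → a = 1) (e : N ≃* Spor.M12) : A.index ≤ 2 ^ 36 := by
  have hs : IsSimpleGroup Spor.M12 := simple_M12
  have hsN : IsSimpleGroup N := e.isSimpleGroup
  have hna : ¬ IsMulCommutative N := by
    intro hcomm
    have hcard : (Nat.card N).Prime := by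
      let _ : CommGroup N := { (inferInstance : Group N) with mul_comm := fun a b => hcomm.is_comm.comm a b }
      exact IsSimpleGroup.prime_card
    rw [Nat.card_congr e.toEquiv, MTw.card_G] at hcard
    norm_num at hcard
  have h1 := index_le_of_counts h hNA hN hC hna (out_M12 e) (good_card_of e) (card_prime_of e)
  exact h1.trans (by norm_num)

end Cfsg.Agent.H640.EPC
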